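import Cfsg.Agent.PrSx.Defs

set_option autoImplicit false

namespace Cfsg.Agent.PrSx

/-- pairs `(k, p)`; for every `22 ≤ n < 7921` one of them works with `r = n - k p ≤ 300` (python-checked) -/
def LT : List (ℕ × ℕ) := [(1, 19), (2, 11), (1, 23), (2, 13), (1, 29), (1, 31), (2, 17), (2, 19), (1, 41), (1, 43), (1, 47), (3, 17), (1, 53), (2, 29), (2, 31), (1, 67), (1, 73), (1, 79), (2, 43), (1, 89), (2, 47), (1, 101), (1, 109), (2, 59), (1, 127), (1, 137), (2, 73), (1, 157), (1, 167), (1, 179), (1, 191), (2, 101), (2, 107), (1, 227), (1, 241), (1, 257), (2, 137), (1, 283), (2, 149), (1, 317), (1, 337), (2, 179), (1, 379), (1, 401), (2, 211), (2, 223), (3, 157), (1, 491), (2, 257), (2, 271), (1, 571), (1, 601), (2, 317), (2, 331), (2, 347), (1, 727), (1, 761), (1, 797), (2, 419), (1, 881), (2, 463), (1, 971), (1, 1019), (1, 1069), (3, 373), (1, 1171), (3, 409), (2, 643), (2, 673), (1, 1409), (3, 491), (2, 769), (1, 1609), (2, 839), (2, 877), (1, 1831),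 (1, 1913), (1, 1997), (1, 2083), (2, 1087), (1, 2269), (2, 1181), (3, 821), (2, 1283), (1, 2671), (1, 2777), (2, 1447), (1, 3011), (2, 1567), (3, 1087), (2, 1697), (1, 3533), (1, 3677), (2, 1913), (2, 1987), (1, 4133), (1, 4297), (1, 4463), (1, 4637), (1, 4817), (1, 5003), (1, 5197), (1, 5393), (2, 2797), (1, 5807), (2, 3011), (1, 6247), (1, 6481), (2, 3361), (1, 6971), (1, 7229), (1, 7489), (2, 3881)]

/-- descending factorial by the bare recursor -/
def nt1_df (n j : ℕ) : ℕ := Nat.rec 1 (fun i acc => (n - i) * acc) j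

theorem nt1_df_eq (n j : ℕ) : nt1_df n j = n.descFactorial j := by
  induction j with
  | zero => rfl
  | succ j ih => rw [Nat.descFactorial_succ, ← ih]; rfl

/-- the test for one pair -/
def nt1_ok (n : ℕ) (x : ℕ × ℕ) : Bool :=
  Nat.blt (x.1 * x.2 + x.1) n && (Nat.ble n (x.1 * x.2 + 300) && (Nat.ble 19 (x.1 * x.2) &&
    (!(Nat.beq x.1 1 && Nat.beq n (x.2 + 2)) &&
    (Nat.ble (nt1_df n (n - x.1 * x.2 - 2) ^ 5 * 2 ^ (8 * (n - (n - x.1 * x.2 - 2)))) (2 ^ (10 * n)) &&
      Nat.ble (nt1_df n (n - x.1 * x.2 - 1) ^ 2 * 8 ^ (n - (n - x.1 * x.2 - 1))) (16 ^ n)))))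

/-- all degrees in `[a, a + c)` pass -/
def nt1_all (L : List (ℕ × ℕ)) (a c : ℕ) : Bool :=
  Nat.rec true (fun i acc => L.any (nt1_ok (a + i)) && acc) c

theorem nt1_all_spec {L : List (ℕ × ℕ)} {a c : ℕ} (h : nt1_all L a c = true) {n : ℕ} (h1 : a ≤ n)
    (h2 : n < a + c) : ∃ x ∈ L, nt1_ok n x = true := by
  induction c with
  | zero => omega
  | succ c ih =>
    have h' : (L.any (nt1_ok (a + c)) && nt1_all L a c) = true := h
    rw [Bool.and_eq_true] at h'
    by_cases e : n = a + c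
    · rw [e]; exact List.any_eq_true.1 h'.1
    · exact ih h'.2 (by omega)

theorem nt1_check : nt1_all LT.reverse 22 7899 = true := by decide +kernel

theorem nt1_prime : ∀ x ∈ LT, x.2.Prime ∧ 1 ≤ x.1 ∧ x.1 < x.2 := by
  simp only [LT, List.forall_mem_cons, List.not_mem_nil, IsEmpty.forall_iff, implies_true, and_true]
  norm_num

theorem nt1_mono {n a c B j m : ℕ} (hc : c ≤ 19 ^ a) (hm : 19 + m ≤ n) (hj : j ≤ m)
    (h : n.descFactorial m ^ a * c ^ (n - m) ≤ B) : n.descFactorial j ^ a * c ^ (n - j) ≤ B := by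
  induction m with
  | zero => rwa [Nat.le_zero.1 hj]
  | succ m ih =>
    rcases Nat.lt_or_ge j (m + 1) with e | e
    · refine ih (by omega) (by omega) (le_trans ?_ h)
      rw [Nat.descFactorial_succ, mul_pow, show n - m = n - (m + 1) + 1 by omega, pow_succ c]
      have : c ≤ (n - (m + 1) + 1) ^ a := hc.trans (Nat.pow_le_pow_left (by omega) _)
      calc n.descFactorial m ^ a * (c ^ (n - (m + 1)) * c)
          ≤ n.descFactorial m ^ a * (c ^ (n - (m + 1)) * (n - (m + 1) + 1) ^ a) := by gcongr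
        _ = _ := by ring
    · rwa [le_antisymm hj e]

/-- Finite check. Suggested: a `Bool` test `okT n k p` (cheap tests first: `k*p + k < n`, `n ≤ k*p + 300`, `¬(k = 1 ∧ n = p + 2)`, `19 + r ≤ n`; then the two inequalities at `j = r - 1` resp. `j = r - 2` only),
`∀ n ∈ List.range 7921, 22 ≤ n → LT.any …` by `decide +kernel` (split the range if slow); primality of the list by `norm_num` or a trial-division checker; monotonicity in `j`:
`descFactorial (j+1) = (n - j) * descFactorial j` with `n - j ≥ 19`, so `8 ≤ (n-j)²`, `2^8 ≤ (n-j)^5`. -/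
theorem numT1 {n : ℕ} (h1 : 22 ≤ n) (h2 : n < 7921) : MilT n := by
  obtain ⟨⟨k, p⟩, hx, h⟩ := nt1_all_spec nt1_check h1 (by omega)
  obtain ⟨hp, k1, kp⟩ := nt1_prime _ (List.mem_reverse.1 hx)
  simp only [nt1_ok, Bool.and_eq_true, Nat.blt_eq, Nat.ble_eq, Bool.not_eq_true', Bool.and_eq_false_iff,
    nt1_df_eq] at h hp k1 kp
  obtain ⟨a1, -, a3, a4, a5, a6⟩ := h
  refine ⟨k, p, n - k * p, hp, by omega, k1, kp, by omega, ?_, by omega, fun j hj => ?_, fun j hj => ?_⟩
  · rintro ⟨rfl, e⟩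
    rcases a4 with a4 | a4
    · simp at a4
    · exact Nat.ne_of_beq_eq_false a4 (by omega)
  · exact nt1_mono (by norm_num) (by omega) (by omega) a6
  · rw [pow_mul] at a5 ⊢
    exact nt1_mono (by norm_num) (by omega) (by omega) a5

end Cfsg.Agent.PrSx
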