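import Cfsg.Agent.PrSx.Defs

set_option autoImplicit false

namespace Cfsg.Agent.PrSx

theorem nt2_pow {s : ℕ} (h : 89 ≤ s) : (s + 1) ^ 15 ≤ 2 ^ (s + 12) := by
  induction s, h using Nat.le_induction with
  | base => norm_num
  | succ s hs ih =>
    have h1 : 90 * (s + 1 + 1) ≤ 91 * (s + 1) := by omega
    have h2 := Nat.pow_le_pow_left h1 15
    rw [mul_pow, mul_pow] at h2
    have h3 : (s + 1 + 1) ^ 15 ≤ 2 * (s + 1) ^ 15 := by
      refine Nat.le_of_mul_le_mul_left (h2.trans ?_) (show 0 < 90 ^ 15 by norm_num)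
      rw [← mul_assoc]
      exact Nat.mul_le_mul_right _ (by norm_num)
    rw [show s + 1 + 12 = s + 12 + 1 by ring, pow_succ 2]
    omega

theorem nt2_key {n s j : ℕ} (h : 89 ≤ s) (h2 : n ≤ (s + 1) ^ 2) :
    (n.descFactorial j) ^ 15 ≤ 2 ^ (2 * j * (s + 12)) :=
  calc (n.descFactorial j) ^ 15 ≤ (((s + 1) ^ 2) ^ j) ^ 15 :=
        Nat.pow_le_pow_left ((Nat.descFactorial_le_pow n j).trans (Nat.pow_le_pow_left h2 j)) 15
    _ = ((s + 1) ^ 15) ^ (2 * j) := by rw [← pow_mul, ← pow_mul, ← pow_mul]; congr 1; ring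
    _ ≤ (2 ^ (s + 12)) ^ (2 * j) := Nat.pow_le_pow_left (nt2_pow h) _
    _ = _ := by rw [← pow_mul]; congr 1; ring

theorem nt2_ab {n s j : ℕ} (h : 89 ≤ s) (h1 : s * s ≤ n) (h2 : n ≤ (s + 1) ^ 2) (hj : j ≤ 3 * s) :
    n.descFactorial j ^ 2 * 8 ^ (n - j) ≤ 16 ^ n ∧
      n.descFactorial j ^ 5 * 2 ^ (8 * (n - j)) ≤ 2 ^ (10 * n) := by
  have k := nt2_key (j := j) h h2
  have e1 : j * s ≤ 3 * (s * s) := by nlinarith
  have e2 : 89 * s ≤ s * s := Nat.mul_le_mul_right _ h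
  obtain ⟨m, rfl⟩ : ∃ m, n = j + m := ⟨n - j, by omega⟩
  rw [Nat.add_sub_cancel_left]
  constructor
  · have k1 : (j + m).descFactorial j ^ 2 ≤ 2 ^ (j + m + 3 * j) := by
      refine (Nat.pow_le_pow_iff_left (n := 15) (by norm_num)).1 ?_
      rw [← pow_mul, mul_comm 2 15, pow_mul, ← pow_mul 2]
      refine (Nat.pow_le_pow_left k 2).trans ?_
      rw [← pow_mul]
      exact Nat.pow_le_pow_right (by norm_num) (by nlinarith)
    calc _ ≤ 2 ^ (j + m + 3 * j) * 8 ^ m := Nat.mul_le_mul_right _ k1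
      _ = 16 ^ (j + m) := by
        rw [show 8 = 2 ^ 3 by norm_num, show 16 = 2 ^ 4 by norm_num, ← pow_mul, ← pow_mul, ← pow_add]
        congr 1; ring
  · have k1 : (j + m).descFactorial j ^ 5 ≤ 2 ^ (2 * (j + m) + 8 * j) := by
      refine (Nat.pow_le_pow_iff_left (n := 3) (by norm_num)).1 ?_
      rw [← pow_mul, ← pow_mul]
      exact k.trans (Nat.pow_le_pow_right (by norm_num) (by nlinarith))
    calc _ ≤ 2 ^ (2 * (j + m) + 8 * j) * 2 ^ (8 * m) := Nat.mul_le_mul_right _ k1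
      _ = 2 ^ (10 * (j + m)) := by rw [← pow_add]; congr 1; ring

/-- `s = Nat.sqrt n ≥ 89`; Bertrand (`Nat.exists_prime_lt_and_le_two_mul`) gives a prime `s < p ≤ 2s`; `k0 = n / p ≤ s < p`, `k0 ≥ 3`, `r0 = n % p`.
If `k0 < r0` take `k = k0`, `r = r0`; else `k = k0 - 1`, `r = r0 + p`. In both cases `r ≤ 3s`, `k ≥ 2`, `19 + r ≤ n`.
For `j ≤ 3s`: `descFactorial ≤ n^j ≤ (s+1)^(2j)` (`Nat.descFactorial_le_pow`), and `(s+1)^15 ≤ 2^(s+12)` for `s ≥ 89` (induction, `(s+2)^15 ≤ 2 (s+1)^15`).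
Needed: `n^(5j) ≤ 2^(2n + 8j)`: cube it: `(s+1)^(30 j) ≤ 2^(2j(s+12))` and `2js ≤ 6s² ≤ 6n`. Likewise `n^(2j) ≤ 2^(n+3j)` (15th power: `(s+1)^(60j) ≤ 2^(4j(s+12))`, `4js + 3j ≤ 15 n`). -/
theorem numT2 {n : ℕ} (h : 7921 ≤ n) : MilT n := by
  have h1 : n.sqrt * n.sqrt ≤ n := Nat.sqrt_le n
  have h2 : n < (n.sqrt + 1) * (n.sqrt + 1) := Nat.lt_succ_sqrt n
  have hs : 89 ≤ n.sqrt := Nat.le_sqrt.2 (by omega)
  generalize n.sqrt = s at h1 h2 hs
  have h3 : n ≤ (s + 1) ^ 2 := by rw [sq]; exact h2.le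
  have e2 : 89 * s ≤ s * s := Nat.mul_le_mul_right _ hs
  obtain ⟨p, hp, p1, p2⟩ := Nat.exists_prime_lt_and_le_two_mul s (by omega)
  have k1 : n / p < s + 1 :=
    Nat.div_lt_of_lt_mul (h2.trans_le (Nat.mul_le_mul_right _ p1))
  have k2 : 3 ≤ n / p := (Nat.le_div_iff_mul_le hp.pos).2 (by omega)
  have k3 : n % p < p := Nat.mod_lt _ hp.pos
  have k4 : n / p * p + n % p = n := Nat.div_add_mod' n p
  generalize n / p = k at k1 k2 k4
  generalize n % p = r at k3 k4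
  rcases Nat.lt_or_ge k r with c | c
  · exact ⟨k, p, r, hp, k4.symm, by omega, by omega, c, by omega, by omega,
      fun j hj => (nt2_ab hs h1 h3 (by omega)).1, fun j hj => (nt2_ab hs h1 h3 (by omega)).2⟩
  · obtain ⟨k, rfl⟩ : ∃ k', k = k' + 1 := ⟨k - 1, by omega⟩
    exact ⟨k, p, r + p, hp, by rw [← k4]; ring, by omega, by omega, by omega, by omega, by omega,
      fun j hj => (nt2_ab hs h1 h3 (by omega)).1, fun j hj => (nt2_ab hs h1 h3 (by omega)).2⟩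

end Cfsg.Agent.PrSx
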